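import Cfsg.Prelude.Def_LieExceptional
import Cfsg.Agent.Lib.Frobenius.Theorem
import Mathlib

/-!
# Zassenhaus groups without the last condition: basic facts (the proofs of `Lib.Zass.Basic`)

`IsPreZass G Ω`: elementary consequences.  The stabiliser of `b` in the stabiliser of `a`
is a Frobenius complement, the Frobenius kernel gives a normal subgroup of the point stabiliser
acting regularly on the other points; involutions in two-point stabilisers are unique.
-/

set_option autoImplicit false
set_option linter.unusedSectionVars false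
set_option linter.style.haveILetI false

namespace Cfsg.Agent.Lib.Zass.Pre

open Cfsg MulAction
open Cfsg.Agent.Lib.Frobenius.Basic Cfsg.Agent.Lib.Frobenius.Theorem

variable {G Ω : Type*} [Group G] [MulAction G Ω]

/-- The first four conditions of a Zassenhaus group, followed by `True`. -/
def IsPreZass (G Ω : Type*) [Group G] [MulAction G Ω] : Prop :=
  FaithfulSMul G Ω ∧ MulAction.IsMultiplyPretransitive G Ω 2 ∧
  (∀ g : G, ∀ a b c : Ω, a ≠ b → b ≠ c → a ≠ c → g • a = a → g • b = b → g • c = c → g = 1) ∧
  (∃ g : G, g ≠ 1 ∧ ∃ a b : Ω, a ≠ b ∧ g • a = a ∧ g • b = b) ∧ True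

theorem fix3 (hZ : IsPreZass G Ω) {g : G} {x y z : Ω} (hxy : x ≠ y) (hyz : y ≠ z)
    (hxz : x ≠ z) (hx : g • x = x) (hy : g • y = y) (hz : g • z = z) : g = 1 :=
  hZ.2.2.1 g x y z hxy hyz hxz hx hy hz

theorem trans2 (hZ : IsPreZass G Ω) {a b c d : Ω} (hab : a ≠ b) (hcd : c ≠ d) :
    ∃ g : G, g • a = c ∧ g • b = d := by
  have h2 := hZ.2.1
  rw [MulAction.is_two_pretransitive_iff] at h2
  exact h2 hab hcd

theorem eq_of_smul (hZ : IsPreZass G Ω) {g k : G} (h : ∀ x : Ω, g • x = k • x) : g = k := by
  have := hZ.1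
  exact FaithfulSMul.eq_of_smul_eq_smul (α := Ω) h

theorem exists_moved (hZ : IsPreZass G Ω) {g : G} (hg : g ≠ 1) : ∃ x : Ω, g • x ≠ x := by
  by_contra hall
  push Not at hall
  exact hg (eq_of_smul hZ fun x => by rw [one_smul]; exact hall x)

/-- At least three points. -/
theorem exists_third (hZ : IsPreZass G Ω) (a b : Ω) : ∃ c : Ω, c ≠ a ∧ c ≠ b := by
  obtain ⟨g, hg1, p, q, hpq, hgp, hgq⟩ := hZ.2.2.2.1
  obtain ⟨x, hx⟩ := exists_moved hZ hg1
  have hxp : x ≠ p := fun h => hx (by rw [h]; exact hgp)
  have hxq : x ≠ q := fun h => hx (by rw [h]; exact hgq)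
  by_contra hall
  push Not at hall
  -- every point is `a` or `b`
  have hb : ∀ c : Ω, c = a ∨ c = b := by
    intro c
    by_cases h : c = a
    · exact Or.inl h
    · exact Or.inr (hall c h)
  rcases hb x with h1 | h1 <;> rcases hb p with h2 | h2 <;> rcases hb q with h3 | h3 <;>
    simp_all

theorem exists_ne_fix2 (hZ : IsPreZass G Ω) {a b : Ω} (hab : a ≠ b) :
    ∃ g : G, g ≠ 1 ∧ g • a = a ∧ g • b = b := by
  obtain ⟨g, hg1, p, q, hpq, hgp, hgq⟩ := hZ.2.2.2.1
  obtain ⟨k, hk1, hk2⟩ := trans2 hZ hpq hab
  refine ⟨k * g * k⁻¹, ?_, ?_, ?_⟩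
  · intro h
    apply hg1
    have : g = k⁻¹ * (k * g * k⁻¹) * k := by group
    rw [this, h]
    group
  · simp only [mul_smul]
    rw [← hk1]
    simp [hgp]
  · simp only [mul_smul]
    rw [← hk2]
    simp [hgq]

/-- The two-point stabiliser inside the one-point stabiliser. -/
abbrev compl (a b : Ω) : Subgroup (stabilizer G a) := (stabilizer G b).subgroupOf (stabilizer G a)

theorem mem_compl {a b : Ω} {g : stabilizer G a} : g ∈ compl a b ↔ (g : G) • b = b := by
  rw [Subgroup.mem_subgroupOf, mem_stabilizer_iff]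

/-- The two-point stabiliser is a Frobenius complement in the one-point stabiliser. -/
theorem isFrobeniusComplement_compl (hZ : IsPreZass G Ω) {a b : Ω} (hab : a ≠ b) :
    IsFrobeniusComplement (compl (G := G) a b) := by
  refine ⟨?_, ?_, ?_⟩
  · intro hbot
    obtain ⟨g, hg1, hga, hgb⟩ := exists_ne_fix2 hZ hab
    have hmem : (⟨g, hga⟩ : stabilizer G a) ∈ compl (G := G) a b := mem_compl.mpr hgb
    rw [hbot, Subgroup.mem_bot] at hmem
    exact hg1 (congrArg Subtype.val hmem)
  · intro htop
    obtain ⟨c, hca, hcb⟩ := exists_third hZ a b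
    obtain ⟨g, hga, hgb⟩ := trans2 hZ hab (c := a) (d := c) (Ne.symm hca)
    have hmem : (⟨g, hga⟩ : stabilizer G a) ∈ compl (G := G) a b := by rw [htop]; trivial
    have := mem_compl.mp hmem
    exact hcb (hgb.symm.trans this)
  · intro g hg
    rw [eq_bot_iff]
    rintro u ⟨hu1, hu2⟩
    rw [Subgroup.mem_bot]
    have hgb : (g : G) • b ≠ b := fun h => hg (mem_compl.mpr h)
    have hua : (u : G) • a = a := u.2
    have hub : (u : G) • b = b := mem_compl.mp hu1
    have hv : (g⁻¹ * u * g : stabilizer G a) ∈ compl (G := G) a b := (mem_conj_iff).mp hu2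
    have hv' := mem_compl.mp hv
    have huc : (u : G) • ((g : G) • b) = (g : G) • b := by
      simp only [Subgroup.coe_mul, Subgroup.coe_inv, mul_smul] at hv'
      rw [inv_smul_eq_iff] at hv'
      exact hv'
    have hga : (g : G) • a = a := g.2
    have hga' : (g : G) • b ≠ a := by
      intro h
      apply hab
      have : (g : G) • b = (g : G) • a := by rw [h, hga]
      exact (smul_left_cancel _ this).symm
    apply Subtype.ext
    exact fix3 hZ hab (Ne.symm hgb) (Ne.symm hga') hua hub huc

variable [Finite G]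

/-- Existence of non-identity Frobenius kernel elements. -/
theorem exists_kernel_ne_one (hZ : IsPreZass G Ω) {a b : Ω} (hab : a ≠ b) :
    ∃ x : stabilizer G a, x ≠ 1 ∧ x ∈ frobeniusKernel (compl (G := G) a b) := by
  have hH := isFrobeniusComplement_compl hZ hab
  have hcard := card_frobeniusKernel hH
  have hidx : 1 < (compl (G := G) a b).index := by
    have h1 : (compl (G := G) a b).index ≠ 0 := Subgroup.index_ne_zero_of_finite
    have h2 : (compl (G := G) a b).index ≠ 1 := fun h => hH.2.1 (Subgroup.index_eq_one.mp h)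
    omega
  rw [← hcard] at hidx
  have : Nontrivial (frobeniusKernel (compl (G := G) a b)) := by
    exact Finite.one_lt_card_iff_nontrivial.mp hidx
  obtain ⟨⟨x, hx⟩, ⟨y, hy⟩, hxy⟩ := exists_pair_ne (frobeniusKernel (compl (G := G) a b))
  by_cases hx1 : x = 1
  · refine ⟨y, ?_, hy⟩
    intro hy1
    apply hxy
    apply Subtype.ext
    exact hx1.trans hy1.symm
  · exact ⟨x, hx1, hx⟩

/-- A non-identity kernel element does not fix `b`. -/
theorem kernel_smul_ne {a b : Ω} {x : stabilizer G a}
    (hx1 : x ≠ 1) (hx : x ∈ frobeniusKernel (compl (G := G) a b)) : (x : G) • b ≠ b := by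
  intro h
  rcases hx with h1 | h1
  · exact hx1 h1
  · apply h1 1
    simpa using mem_compl.mpr h

/-- Two-point stabilisers have at most one involution. -/
theorem unique_involution (hZ : IsPreZass G Ω) {a b : Ω} (hab : a ≠ b) {t t' : G}
    (hta : t • a = a) (htb : t • b = b) (ht'a : t' • a = a) (ht'b : t' • b = b)
    (ht1 : t ≠ 1) (ht2 : t * t = 1) (ht'1 : t' ≠ 1) (ht'2 : t' * t' = 1) : t = t' := by
  have hH := isFrobeniusComplement_compl hZ hab
  obtain ⟨x, hx1, hx⟩ := exists_kernel_ne_one hZ hab
  let τ : stabilizer G a := ⟨t, hta⟩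
  let τ' : stabilizer G a := ⟨t', ht'a⟩
  have hτ : τ ∈ compl (G := G) a b := mem_compl.mpr htb
  have hτ' : τ' ∈ compl (G := G) a b := mem_compl.mpr ht'b
  have hτ1 : τ ≠ 1 := fun h => ht1 (congrArg Subtype.val h)
  have hτ'1 : τ' ≠ 1 := fun h => ht'1 (congrArg Subtype.val h)
  have hτ2 : τ * τ = 1 := Subtype.ext ht2
  have hτ'2 : τ' * τ' = 1 := Subtype.ext ht'2
  have e1 := involution_inverts_kernel hH hτ hτ1 hτ2 hx
  have e2 := involution_inverts_kernel hH hτ' hτ'1 hτ'2 hx
  -- `w = τ'⁻¹ τ` commutes with `x`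
  have hcomm : (τ'⁻¹ * τ) * x = x * (τ'⁻¹ * τ) := by
    have : τ * x * τ⁻¹ = τ' * x * τ'⁻¹ := e1.trans e2.symm
    calc (τ'⁻¹ * τ) * x = τ'⁻¹ * (τ * x * τ⁻¹) * τ := by group
      _ = τ'⁻¹ * (τ' * x * τ'⁻¹) * τ := by rw [this]
      _ = x * (τ'⁻¹ * τ) := by group
  have hcomm' : (t'⁻¹ * t) * (x : G) = (x : G) * (t'⁻¹ * t) := congrArg Subtype.val hcomm
  have hxb := kernel_smul_ne hx1 hx
  have hxa : (x : G) • a = a := x.2
  have hxb' : (x : G) • b ≠ a := by
    intro h
    apply hab
    have : (x : G) • b = (x : G) • a := by rw [h, hxa]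
    exact (smul_left_cancel _ this).symm
  have hwa : (t'⁻¹ * t) • a = a := by
    rw [mul_smul, hta, inv_smul_eq_iff, ht'a]
  have hwb : (t'⁻¹ * t) • b = b := by
    rw [mul_smul, htb, inv_smul_eq_iff, ht'b]
  have hwc : (t'⁻¹ * t) • ((x : G) • b) = (x : G) • b := by
    rw [← mul_smul, hcomm', mul_smul, hwb]
  have := fix3 hZ hab (Ne.symm hxb) (Ne.symm hxb') hwa hwb hwc
  exact (inv_mul_eq_one.mp this).symm

/-- The Frobenius kernel of a point stabiliser, as a subgroup of `G`. -/
noncomputable def kernelAt (a b : Ω) : Subgroup G :=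
  (kernel (compl (G := G) a b)).map (stabilizer G a).subtype

theorem kernelAt_le (a b : Ω) : kernelAt (G := G) a b ≤ stabilizer G a := by
  rintro _ ⟨x, _, rfl⟩
  exact x.2

theorem kernelAt_normal (a b : Ω) :
    ((kernelAt (G := G) a b).subgroupOf (stabilizer G a)).Normal := by
  have : (kernelAt (G := G) a b).subgroupOf (stabilizer G a) = kernel (compl (G := G) a b) := by
    ext x
    simp only [kernelAt, Subgroup.mem_subgroupOf, Subgroup.mem_map]
    constructor
    · rintro ⟨y, hy, hyx⟩
      have : y = x := Subtype.ext hyx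
      rwa [← this]
    · intro hx
      exact ⟨x, hx, rfl⟩
  rw [this]
  infer_instance

/-- The Frobenius kernel acts regularly on the points other than `a`. -/
theorem kernelAt_regular [Finite Ω] (hZ : IsPreZass G Ω) {a b : Ω} (hab : a ≠ b)
    {y z : Ω} (hy : y ≠ a) (hz : z ≠ a) :
    ∃! u : kernelAt (G := G) a b, (u : G) • y = z := by
  classical
  have hH := isFrobeniusComplement_compl hZ hab
  -- first the case `y = b`
  -- non-identity elements of the kernel fix no point other than `a`
  have hfree : ∀ u : kernelAt (G := G) a b, ∀ w : Ω, w ≠ a → (u : G) • w = w → u = 1 := by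
    rintro ⟨_, x, hx, rfl⟩ w hw hfix
    apply Subtype.ext
    by_contra hne
    have hx1 : x ≠ 1 := fun h => hne (by simp [h])
    have hxk : x ∈ frobeniusKernel (compl (G := G) a b) := (mem_kernel_iff hH).mp hx
    rcases hxk with h1 | h1
    · exact hx1 h1
    -- conjugate to fix `b`
    obtain ⟨g, hga, hgb⟩ := trans2 hZ hab (c := a) (d := w) (Ne.symm hw)
    apply h1 ⟨g, hga⟩
    rw [mem_conj_iff, mem_compl]
    simp only [Subgroup.coe_mul, Subgroup.coe_inv, mul_smul]
    rw [hgb, inv_smul_eq_iff, hgb]
    exact hfix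
  -- the action map on the complement of `a`
  let P := {w : Ω // w ≠ a}
  let f : kernelAt (G := G) a b → P := fun u => ⟨(u : G) • y, by
    intro h
    apply hy
    have hu : (u : G) • a = a := kernelAt_le a b u.2
    have : (u : G) • y = (u : G) • a := by rw [h, hu]
    exact smul_left_cancel _ this⟩
  have hf : Function.Injective f := by
    intro u v huv
    have h1 : (u : G) • y = (v : G) • y := congrArg Subtype.val huv
    have h2 : (v⁻¹ * u : kernelAt (G := G) a b) = 1 := by
      apply hfree _ y hy
      simp only [Subgroup.coe_mul, Subgroup.coe_inv, mul_smul]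
      rw [h1, inv_smul_smul]
    exact (inv_mul_eq_one.mp h2).symm
  -- cardinalities
  have hcardF : Nat.card (kernelAt (G := G) a b) = (compl (G := G) a b).index := by
    rw [← card_kernel hH]
    exact Nat.card_congr (Subgroup.equivMapOfInjective _ _ Subtype.val_injective).symm.toEquiv
  have hcardP : Nat.card P = (compl (G := G) a b).index := by
    -- orbit of `b` under the stabiliser of `a`
    have hsurj : Function.Surjective (fun g : stabilizer G a =>
        (⟨(g : G) • b, by
          intro h
          apply hab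
          have hg : (g : G) • a = a := g.2
          have : (g : G) • b = (g : G) • a := by rw [h, hg]
          exact (smul_left_cancel _ this).symm⟩ : P)) := by
      rintro ⟨w, hw⟩
      obtain ⟨g, hga, hgb⟩ := trans2 hZ hab (c := a) (d := w) (Ne.symm hw)
      exact ⟨⟨g, hga⟩, Subtype.ext hgb⟩
    let φ : stabilizer G a ⧸ compl (G := G) a b → P := fun q =>
      Quotient.liftOn' q (fun g : stabilizer G a => (⟨(g : G) • b, by
          intro h
          apply hab
          have hg : (g : G) • a = a := g.2
          have : (g : G) • b = (g : G) • a := by rw [h, hg]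
          exact (smul_left_cancel _ this).symm⟩ : P)) (by
        intro g g' hgg
        have h2 : (g⁻¹ * g') ∈ compl (G := G) a b := QuotientGroup.leftRel_apply.mp hgg
        have h3 := mem_compl.mp h2
        simp only [Subgroup.coe_mul, Subgroup.coe_inv, mul_smul] at h3
        rw [inv_smul_eq_iff] at h3
        apply Subtype.ext
        exact h3.symm)
    have hφ : Function.Bijective φ := by
      constructor
      · intro q q'
        induction q using QuotientGroup.induction_on with | H g
        induction q' using QuotientGroup.induction_on with | H g'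
        intro h
        have h1 : (g : G) • b = (g' : G) • b := congrArg Subtype.val h
        rw [QuotientGroup.eq]
        apply mem_compl.mpr
        simp only [Subgroup.coe_mul, Subgroup.coe_inv, mul_smul]
        rw [inv_smul_eq_iff]
        exact h1.symm
      · intro w
        obtain ⟨g, hg⟩ := hsurj w
        exact ⟨(g : stabilizer G a ⧸ compl (G := G) a b), hg⟩
    rw [Subgroup.index]
    exact (Nat.card_eq_of_bijective φ hφ).symm
  have hfbij : Function.Bijective f :=
    (Nat.bijective_iff_injective_and_card f).mpr ⟨hf, by rw [hcardF, hcardP]⟩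
  obtain ⟨u, hu⟩ := hfbij.2 ⟨z, hz⟩
  refine ⟨u, congrArg Subtype.val hu, ?_⟩
  intro v hv
  apply hf
  rw [hu]
  exact Subtype.ext hv

end Cfsg.Agent.Lib.Zass.Pre
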