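import Cfsg.Agent.Lib.Zass.NoSharp
import Cfsg.Agent.Lib.Zass.PrimeDeg

/-!
# The index two subgroup of the two-point stabiliser in a sharply 3-transitive group
-/

set_option autoImplicit false
set_option linter.unusedSectionVars false
set_option linter.unusedVariables false
set_option linter.style.haveILetI false
set_option linter.unusedFintypeInType false

namespace Cfsg.Agent.Lib.Zass.Sharp3Index

open Cfsg MulAction
open Cfsg.Agent.Lib.Zass.Basic Cfsg.Agent.Lib.Zass.Stab Cfsg.Agent.Lib.Zass.Infl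
  Cfsg.Agent.Lib.CharDeep.Zassenhaus Cfsg.Agent.Lib.Char.Induced
open Cfsg.Agent.Lib.Char.Basic Cfsg.Agent.Lib.Char.Ortho Cfsg.Agent.Lib.Char.Complete
open Cfsg.Agent.Lib.Char.Degree Cfsg.Agent.Lib.Char.Conj
open Cfsg.Agent.Lib.Zass.NoSharp
open Finset
open scoped ComplexConjugate

universe u v

section Main

variable {G : Type u} {Ω : Type v} [Group G] [MulAction G Ω] [Fintype G] [Fintype Ω]
variable {a b : Ω} {H : Subgroup G} (D : Data a b H)

open scoped Classical

include D

/-- A character that is constant on `H` and not on `G`. -/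
theorem exists_kernel_char (hR : Nat.card (E (G := G) a b) + 1 = Nat.card H)
    (heven : Even (Nat.card (E (G := G) a b))) :
    ∃ X : G → ℂ, IsIrrCharacter G X ∧ (∀ u ∈ H, X u = X 1) ∧ ∃ g : G, X g ≠ X 1 := by
  obtain ⟨s, hs, hsa, hsb⟩ := (Cfsg.Agent.S0740.result D.hZ D.hab).1
  have hss : s * s = 1 := by
    have := pow_orderOf_eq_one s
    rwa [hs, pow_two] at this
  have hsi : s⁻¹ = s := inv_eq_of_mul_eq_one_left hss
  obtain ⟨θ, hθ, hθ1, hθs, hodd⟩ := exists_odd_fixed (sig hsa hsb) (by
    intro e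
    apply Subtype.ext
    simp only [coe_sig, hsi]
    calc s * (s * (e : G) * s) * s = (s * s) * e * (s * s) := by group
      _ = e := by rw [hss]; group) heven
  have hθc := isClassFunction_of_isIrrCharacter hθ
  have hYc : IsCharacter G (Y D θ) := isCharacter_Y D (isCharacter_of_isIrrCharacter hθ)
  have hYn : classInner (Y D θ) (Y D θ) = 2 := by
    rw [classInner_Y_Y D hθc hsa hsb, hθs, classInner_self_of_isIrr hθ]
    norm_num
  obtain ⟨X, X', hX, hX', hne, hY⟩ := norm_two_char hYc hYn
  have hT := T_eq_of_decomp D hθ hsa hsb hθs hX hX' hne hY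
  have hT' := T_eq_of_decomp D hθ hsa hsb hθs hX' hX (Ne.symm hne) (by rw [hY, add_comm])
  obtain ⟨m, hm⟩ := deg_of_T D (isCharacter_of_isIrrCharacter hX) hθ hθ1 hT
  obtain ⟨m', hm'⟩ := deg_of_T D (isCharacter_of_isIrrCharacter hX') hθ hθ1 hT'
  set d := Nat.card (E (G := G) a b) with hd
  have hd0 : 0 < d := Nat.card_pos
  have hH2 : 1 < Nat.card H := by omega
  obtain ⟨t, ht⟩ := exists_deg_of_isCharacter (isCharacter_of_isIrrCharacter hθ)
  have htdeg : charDegree θ = t := charDegree_eq_of_eq_natCast ht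
  rw [htdeg] at hodd
  rw [ht] at hm hm'
  -- the degree equation
  have hsum : (m + m' : ℕ) = t := by
    have h1 : Y D θ 1 = X 1 + X' 1 := by rw [hY]; rfl
    rw [Y_one D, hm, hm', ht, ← hR] at h1
    have h2 : ((d + 1 + 1) * t : ℕ) = (t + d * m) + (t + d * m') := by
      have : (((d + 1 + 1) * t : ℕ) : ℂ) = (((t + d * m) + (t + d * m') : ℕ) : ℂ) := by
        push_cast
        push_cast at h1
        rw [h1]
      exact_mod_cast this
    have h3 : d * (m + m') = d * t := by
      have : (d + 1 + 1) * t = d * t + t + t := by ring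
      have h4 : t + d * m + (t + d * m') = d * (m + m') + t + t := by ring
      omega
    exact Nat.eq_of_mul_eq_mul_left hd0 h3
  have hmne : m ≠ m' := by
    intro h
    subst h
    obtain ⟨k, hk⟩ := hodd
    omega
  -- a zero multiplicity gives the required character
  have hgood : ∀ {Z : G → ℂ}, IsIrrCharacter G Z → T a b H Z = θ → Z 1 = θ 1 →
      ∃ X : G → ℂ, IsIrrCharacter G X ∧ (∀ u ∈ H, X u = X 1) ∧ ∃ g : G, X g ≠ X 1 := by
    intro Z hZ hTZ h1
    have hZc := isCharacter_of_isIrrCharacter hZ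
    have hT1 : (Nat.card H : ℂ)⁻¹ * ∑ u : H, Z u = θ 1 := by
      rw [← hTZ]
      simp [T]
    have h0 := card_subgroup_ne_zero H
    have hsum : ∑ u : H, Z u = (Nat.card H : ℂ) * Z 1 := by
      rw [h1, ← hT1]
      field_simp
    have hconst := eq_of_sum_eq hZc H hsum
    refine ⟨Z, hZ, fun u hu => hconst ⟨u, hu⟩, ?_⟩
    by_contra hall
    push Not at hall
    have hone : IsIrrCharacter (E (G := G) a b) (fun _ => (1 : ℂ)) := isIrr_trivial _
    have hθc' : ∀ e : E (G := G) a b, θ e = θ 1 := by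
      intro e
      by_cases he : e = 1
      · rw [he]
      · rw [← hTZ]
        simp only [T, if_neg he, if_true]
        rw [hall (e : G), hsum, ← mul_assoc, inv_mul_cancel₀ h0, one_mul]
    have h2 := classInner_eq_zero_of_isIrr_of_ne hθ hone hθ1
    rw [classInner_subgroup_eq] at h2
    have h3 := (mul_eq_zero.mp h2).resolve_left (inv_ne_zero (card_subgroup_ne_zero _))
    simp only [map_one, mul_one, Finset.sum_congr rfl (fun e _ => hθc' e), Finset.sum_const,
      Finset.card_univ, nsmul_eq_mul] at h3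
    have h4 := irr_one_ne_zero hθ
    rcases mul_eq_zero.mp h3 with h5 | h5
    · have : Fintype.card (E (G := G) a b) ≠ 0 := Fintype.card_ne_zero
      exact this (by exact_mod_cast h5)
    · exact h4 h5
  by_cases hm0 : m = 0
  · exact hgood hX hT (by rw [hm, hm0, ht]; simp)
  by_cases hm'0 : m' = 0
  · exact hgood hX' hT' (by rw [hm', hm'0, ht]; simp)
  exfalso
  -- size of `θ`
  have htd : t ^ 2 + 1 ≤ d := by
    classical
    have := finite_irrCharacter (G := E (G := G) a b)
    let _ := Fintype.ofFinite (IrrCharacter (E (G := G) a b))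
    have h1 := sum_charDegree_sq (G := E (G := G) a b)
    have hne1 : (⟨θ, hθ⟩ : IrrCharacter (E (G := G) a b)) ≠ ⟨fun _ => 1, isIrr_trivial _⟩ := by
      intro h
      exact hθ1 (congrArg Subtype.val h)
    have h2 := Finset.sum_le_sum_of_subset (f := fun χ : IrrCharacter (E (G := G) a b) =>
      charDegree (χ : E (G := G) a b → ℂ) ^ 2) (Finset.subset_univ {⟨θ, hθ⟩, ⟨fun _ => 1, isIrr_trivial _⟩})
    rw [Finset.sum_pair hne1] at h2
    have h3 : charDegree (fun _ : E (G := G) a b => (1 : ℂ)) = 1 :=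
      charDegree_eq_of_eq_natCast (by simp)
    simp only [htdeg, h3] at h2
    rw [h1] at h2
    simp only [one_pow] at h2
    exact h2
  -- the order of the group
  have hcardG : Nat.card G = (d + 1 + 1) * (d + 1) * d := by
    have h1 := card_eq_card_mul_index (stabilizer G a)
    rw [card_stab D, index_stabilizer D, ← hR] at h1
    rw [h1]
    ring
  -- the final arithmetic
  have hfinal : ∀ {Z : G → ℂ} {A B : ℕ}, IsIrrCharacter G Z → Z 1 = t + d * A → B ≠ 0 → B < A →
      A + B = t → False := by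
    intro Z A B hZ hZ1 hB hAB hABt
    have h1 : charDegree Z = t + d * A := charDegree_eq_of_eq_natCast (by rw [hZ1]; push_cast; rfl)
    have h2 := charDegree_dvd_card hZ
    rw [h1, hcardG] at h2
    have h3 : t + d * A = A * (d + 1) + B := by
      rw [← hABt]
      ring
    rw [h3] at h2
    refine Cfsg.Agent.Lib.Zass.NoSharp.arith (A := A) (B := B) (q := d + 1) (by omega) hAB ?_ ?_
    · rw [hABt]
      omega
    · simpa [mul_comm, mul_assoc, mul_left_comm] using h2
  rcases lt_or_gt_of_ne hmne with h | h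
  · exact hfinal hX' hm' hm0 h (by omega)
  · exact hfinal hX hm hm'0 h (by omega)

end Main

section Zass

open Cfsg.Agent.Lib.Zass.Sharp3 Cfsg.Agent.Lib.Zass.Root Cfsg.Agent.Lib.Zass.Root.RootData

variable {G : Type u} {Ω : Type v} [Group G] [Finite G] [MulAction G Ω] [Fintype Ω]

/-- A sharply three-transitive group of even degree at least six is a Zassenhaus group. -/
theorem isZassenhaus (S : Sharp3 G Ω) (faith : ∀ g g' : G, (∀ y : Ω, g • y = g' • y) → g = g')
    (h6 : 6 ≤ Fintype.card Ω) (heven : Even (Fintype.card Ω)) : IsZassenhausGroup G Ω := by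
  classical
  have hthird : ∀ u v : Ω, ∃ c, c ≠ u ∧ c ≠ v := by
    intro u v
    by_contra hcon
    push Not at hcon
    have hsub : (Finset.univ : Finset Ω) ⊆ {u, v} := by
      intro c _
      by_cases hcu : c = u
      · simp [hcu]
      · simp [hcon c hcu]
    have h1 := Finset.card_le_card hsub
    have h2 : ({u, v} : Finset Ω).card ≤ 2 := Finset.card_le_two
    rw [Finset.card_univ] at h1
    omega
  have htwo : ∀ {a b c d : Ω}, a ≠ b → c ≠ d → ∃ g : G, g • a = c ∧ g • b = d := by
    intro a b c d hab hcd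
    obtain ⟨x, hxa, hxb⟩ := hthird a b
    obtain ⟨y, hyc, hyd⟩ := hthird c d
    obtain ⟨g, h1, h2, -⟩ := S.trans a b x c d y hab (Ne.symm hxb) (Ne.symm hxa) hcd (Ne.symm hyd)
      (Ne.symm hyc)
    exact ⟨g, h1, h2⟩
  have h2 : IsMultiplyPretransitive G Ω 2 := is_two_pretransitive_iff.mpr (fun hab hcd => htwo hab hcd)
  obtain ⟨a, b, hab⟩ := Fintype.exists_pair_of_one_lt_card (by omega : 1 < Fintype.card Ω)
  obtain ⟨x₁, hx₁a, hx₁b⟩ := hthird a b
  refine ⟨⟨fun {g g'} h => faith g g' h⟩, h2, S.sharp, ?_, ?_⟩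
  · -- a non-trivial element fixing two points
    have : ∃ y, y ≠ a ∧ y ≠ b ∧ y ≠ x₁ := by
      by_contra hcon
      push Not at hcon
      have hsub : (Finset.univ : Finset Ω) ⊆ {a, b, x₁} := by
        intro c _
        by_cases hca : c = a
        · simp [hca]
        by_cases hcb : c = b
        · simp [hcb]
        · simp [hcon c hca hcb]
      have h1 := Finset.card_le_card hsub
      have h2 : ({a, b, x₁} : Finset Ω).card ≤ 3 := Finset.card_le_three
      rw [Finset.card_univ] at h1
      omega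
    obtain ⟨y, hya, hyb, hyx⟩ := this
    obtain ⟨g, h1, h2, h3⟩ := S.trans a b x₁ a b y hab (Ne.symm hx₁b) (Ne.symm hx₁a) hab (Ne.symm hyb)
      (Ne.symm hya)
    refine ⟨g, ?_, a, b, hab, h1, h2⟩
    rintro rfl
    rw [one_smul] at h3
    exact hyx h3.symm
  · intro N hN htr
    by_contra hcon
    push Not at hcon
    have hreg : ∀ x : Ω, stabilizer N x = ⊥ := hcon
    haveI := hN
    haveI : Nonempty Ω := ⟨a⟩
    obtain ⟨hcomm, p, hp, hexp⟩ := Cfsg.Agent.Lib.Perm.Regular.elementary_abelian h2 N htr hreg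
    haveI : Fact p.Prime := ⟨hp⟩
    have hpg : IsPGroup p N := by
      intro m
      refine ⟨1, ?_⟩
      apply Subtype.ext
      simpa using hexp m m.2
    have hcN : Nat.card N = Fintype.card Ω := by
      let f : N → Ω := fun n => (n : G) • a
      have hf : Function.Bijective f := by
        constructor
        · intro n m h
          exact Subtype.ext (Cfsg.Agent.Lib.Perm.Regular.eq_of_smul_eq hreg (x := a) n.2 m.2 h)
        · intro y
          obtain ⟨n, hn⟩ := htr.exists_smul_eq a y
          exact ⟨n, hn⟩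
      rw [Nat.card_congr (Equiv.ofBijective f hf), Nat.card_eq_fintype_card]
    obtain ⟨k, hk⟩ := IsPGroup.iff_card.mp hpg
    have hp2 : p = 2 := by
      have h1 : 2 ∣ p ^ k := by
        rw [← hk, hcN]
        exact heven.two_dvd
      have h2 := Nat.prime_two.dvd_of_dvd_pow h1
      exact ((Nat.prime_dvd_prime_iff_eq Nat.prime_two hp).mp h2).symm
    subst hp2
    -- an involution of `G_a`
    obtain ⟨x₂, hx₂a, hx₂1⟩ := hthird a x₁
    obtain ⟨t, ht1, ht2, ht3⟩ := S.trans a x₁ x₂ a x₂ x₁ (Ne.symm hx₁a) (Ne.symm hx₂1) (Ne.symm hx₂a)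
      (Ne.symm hx₂a) hx₂1 (Ne.symm hx₁a)
    have htt : t * t = 1 := by
      apply S.sharp _ a x₁ x₂ (Ne.symm hx₁a) (Ne.symm hx₂1) (Ne.symm hx₂a)
      · rw [mul_smul, ht1, ht1]
      · rw [mul_smul, ht2, ht3]
      · rw [mul_smul, ht3, ht2]
    have hti : t⁻¹ = t := inv_eq_of_mul_eq_one_left htt
    have ht1' : t ≠ 1 := by
      rintro rfl
      rw [one_smul] at ht2
      exact hx₂1 ht2.symm
    let c : N → N := fun n => ⟨t * n * t⁻¹, hN.conj_mem _ n.2 t⟩
    have hcc : ∀ n, c (c n) = n := by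
      intro n
      apply Subtype.ext
      show t * (t * (n : G) * t⁻¹) * t⁻¹ = n
      rw [hti]
      calc t * (t * (n : G) * t) * t = (t * t) * n * (t * t) := by group
        _ = n := by rw [htt]; group
    have hcmul : ∀ n m, c (n * m) = c n * c m := by
      intro n m
      apply Subtype.ext
      show t * ((n : G) * m) * t⁻¹ = t * n * t⁻¹ * (t * m * t⁻¹)
      group
    have hcN' : ∀ n m : N, n * m = m * n := fun n m => hcomm.is_comm.comm n m
    have hsq : ∀ n : N, n * n = 1 := by
      intro n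
      apply Subtype.ext
      have := hexp n n.2
      rw [pow_two] at this
      exact this
    haveI : Fintype N := Fintype.ofFinite N
    -- the fixed points of `c`
    let C : Finset N := Finset.univ.filter fun n => c n = n
    have hC : C.card ≤ 2 := by
      by_contra hlt
      rw [not_le, Finset.two_lt_card_iff] at hlt
      obtain ⟨n₁, n₂, n₃, h1, h2, h3, h12, h13, h23⟩ := hlt
      simp only [C, Finset.mem_filter, Finset.mem_univ, true_and] at h1 h2 h3
      have hfix : ∀ n : N, c n = n → t • ((n : G) • a) = (n : G) • a := by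
        intro n hn
        have h4 : t * n * t⁻¹ = n := congrArg Subtype.val hn
        have h5 : t⁻¹ • a = a := by rw [inv_smul_eq_iff, ht1]
        calc t • ((n : G) • a) = (t * n * t⁻¹) • (t • a) := by
              rw [mul_smul, mul_smul, inv_smul_smul]
          _ = (n : G) • a := by rw [h4, ht1]
      have hne : ∀ n m : N, n ≠ m → (n : G) • a ≠ (m : G) • a := by
        intro n m hnm h
        exact hnm (Subtype.ext (Cfsg.Agent.Lib.Perm.Regular.eq_of_smul_eq hreg (x := a) n.2 m.2 h))
      exact ht1' (S.sharp t _ _ _ (hne _ _ h12) (hne _ _ h23) (hne _ _ h13) (hfix _ h1) (hfix _ h2) (hfix _ h3))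
    -- the map `n ↦ n c(n)`
    let f : N → N := fun n => n * c n
    have hfC : ∀ n, f n ∈ C := by
      intro n
      simp only [C, Finset.mem_filter, Finset.mem_univ, true_and]
      show c (n * c n) = n * c n
      rw [hcmul, hcc, hcN']
    have hfib : ∀ y ∈ (Finset.univ : Finset N).image f,
        ((Finset.univ : Finset N).filter fun x => f x = y).card ≤ 2 := by
      intro y hy
      obtain ⟨m, -, rfl⟩ := Finset.mem_image.mp hy
      refine le_trans ?_ hC
      apply Finset.card_le_card_of_injOn (fun n => n * m⁻¹)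
      · intro n hn
        have hn' : f n = f m := (Finset.mem_filter.mp hn).2
        simp only [C, Finset.coe_filter, Finset.mem_univ, true_and, Set.mem_ofPred_eq]
        have h1 : n * c n = m * c m := hn'
        have h2 : c m⁻¹ = (c m)⁻¹ := by
          apply Subtype.ext
          show t * ((m : G)⁻¹) * t⁻¹ = (t * m * t⁻¹)⁻¹
          group
        rw [hcmul, h2]
        -- `w c(w) = 1`
        have h3 : (n * m⁻¹) * (c n * (c m)⁻¹) = 1 := by
          have : (n * m⁻¹) * (c n * (c m)⁻¹) = (n * c n) * (m⁻¹ * (c m)⁻¹) := by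
            rw [mul_assoc, mul_assoc, ← mul_assoc m⁻¹, hcN' m⁻¹ (c n), mul_assoc (c n)]
          rw [this, h1]
          have : (m * c m) * (m⁻¹ * (c m)⁻¹) = (m * m⁻¹) * (c m * (c m)⁻¹) := by
            rw [mul_assoc, mul_assoc, ← mul_assoc (c m), hcN' (c m) m⁻¹, mul_assoc m⁻¹]
          rw [this]
          simp
        have h4 := eq_inv_of_mul_eq_one_right h3
        rw [h4]
        exact inv_eq_of_mul_eq_one_left (hsq _)
      · intro n _ n' _ h
        exact mul_right_cancel h
    have h3 := Finset.card_le_mul_card_image (f := f) Finset.univ 2 hfib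
    have h4 : ((Finset.univ : Finset N).image f).card ≤ C.card := by
      apply Finset.card_le_card
      intro y hy
      obtain ⟨m, -, rfl⟩ := Finset.mem_image.mp hy
      exact hfC m
    rw [Finset.card_univ, ← Nat.card_eq_fintype_card, hcN] at h3
    omega

/-- The group of translations of root data. -/
def tauSub {A : Type*} [AddCommGroup A] (R : RootData G Ω A) : Subgroup G where
  carrier := Set.range R.τ
  one_mem' := ⟨0, R.τ_zero⟩
  mul_mem' := by
    rintro _ _ ⟨x, rfl⟩ ⟨y, rfl⟩
    exact ⟨x + y, R.τ_add x y⟩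
  inv_mem' := by
    rintro _ ⟨x, rfl⟩
    exact ⟨-x, R.τ_neg x⟩

theorem card_tauSub {A : Type*} [AddCommGroup A] (R : RootData G Ω A) :
    Nat.card (tauSub R) = Nat.card A := by
  symm
  refine Nat.card_congr (Equiv.ofBijective (fun x : A => (⟨R.τ x, x, rfl⟩ : tauSub R)) ⟨?_, ?_⟩)
  · intro x y h
    exact R.τ_inj (congrArg Subtype.val h)
  · rintro ⟨_, x, rfl⟩
    exact ⟨x, rfl⟩

/-- **The index two subgroup.** -/
theorem main [Fintype G] (S : Sharp3 G Ω) (faith : ∀ g g' : G, (∀ y : Ω, g • y = g' • y) → g = g')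
    (h6 : 6 ≤ Fintype.card Ω) (heven : Even (Fintype.card Ω)) {a b : Ω} (hab : a ≠ b)
    {s : G} (hsa : s • a = b) (hsb : s • b = a) :
    ∃ N : Subgroup G, N ≤ stabilizer G a ⊓ stabilizer G b ∧
      (N.subgroupOf (stabilizer G a ⊓ stabilizer G b)).Normal ∧
      N.relIndex (stabilizer G a ⊓ stabilizer G b) = 2 ∧ ∀ n ∈ N, s * n * s⁻¹ ∈ N := by
  classical
  have hZ := isZassenhaus S faith h6 heven
  obtain ⟨c, hca, hcb⟩ : ∃ c, c ≠ a ∧ c ≠ b := by
    by_contra hcon
    push Not at hcon
    have hsub : (Finset.univ : Finset Ω) ⊆ {a, b} := by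
      intro c _
      by_cases hcu : c = a
      · simp [hcu]
      · simp [hcon c hcu]
    have h1 := Finset.card_le_card hsub
    have h2 : ({a, b} : Finset Ω).card ≤ 2 := Finset.card_le_two
    rw [Finset.card_univ] at h1
    omega
  obtain ⟨A, iA, iF, R, p, j, hRa, hRb, hp, hj, hΩ, hcA, hexp⟩ :=
    S.exists_rootData faith (Ne.symm hab) hca (Ne.symm hcb)
  subst hRa hRb
  have hoddA : Odd (Nat.card A) := by
    rw [hcA]
    have : Even (p ^ j + 1) := hΩ ▸ heven
    by_contra hne
    rw [Nat.not_odd_iff_even] at hne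
    exact (Nat.not_even_iff_odd.mpr (Even.add_one hne)) this
  have hAc1 : 1 < Nat.card A := by
    rw [hcA]
    omega
  haveI : Nontrivial A := Finite.one_lt_card_iff_nontrivial.mp hAc1
  obtain ⟨e, he⟩ := exists_ne (0 : A)
  have hodd : ∀ x : A, x + x = 0 → x = 0 := fun x hx =>
    Cfsg.Agent.Lib.Zass.PrimeDeg.no_two_torsion hoddA card_nsmul_eq_zero' hx
  obtain ⟨s', hs', hsp, hse⟩ := Cfsg.Agent.Lib.Zass.Sharp3Odd.exists_special S he hodd
  have hcardH := card_H (R := R) S he
  have hFc : Nat.card (tauSub R) + 1 = Fintype.card Ω := by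
    rw [card_tauSub, hcA, hΩ]
  have D : Data R.inf R.o (tauSub R) :=
    { hZ := hZ
      hab := hab
      hHa := by
        rintro _ ⟨x, rfl⟩
        exact R.τ_inf x
      hHcard := hFc
      hHfix := by
        rintro _ ⟨x, rfl⟩ hu c hc
        by_contra hcinf
        obtain ⟨y, rfl⟩ := R.pt_surj c hcinf
        rw [R.τ_pt] at hc
        have h1 := R.pt_inj hc
        have h2 : x = 0 := by simpa using h1
        apply hu
        rw [h2, R.τ_zero] }
  obtain ⟨X, hX, hXF, g₀, hg₀⟩ := exists_kernel_char D (by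
    show Nat.card R.H + 1 = _
    rw [hcardH, card_tauSub]) (by
    show Even (Nat.card R.H)
    by_contra hne
    rw [Nat.not_even_iff_odd] at hne
    rw [← hcardH] at hoddA
    exact (Nat.not_even_iff_odd.mpr hoddA) (Odd.add_one hne))
  have hXc := isCharacter_of_isIrrCharacter hX
  set K := charKer hXc with hK
  haveI : K.Normal := charKer_normal hXc
  have hτK : ∀ x : A, R.τ x ∈ K := fun x => hXF _ ⟨x, rfl⟩
  have hbr : ∀ x : A, br s' R x ∈ K := by
    intro x
    have h1 := ‹K.Normal›.conj_mem _ (hτK (R.ap s' x)) s'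
    rwa [hs'.inv_eq] at h1
  have hmuK : ∀ x : A, mu s' R x ∈ K := by
    intro x
    rw [mu_def]
    exact K.mul_mem (K.mul_mem (hτK _) (hbr x)) (hτK _)
  have hs'K : s' ∈ K := by
    have := hmuK e
    rwa [mu_self hs' hsp he hse] at this
  have hHK : ¬ R.H ≤ K := by
    intro hle
    apply hg₀
    have hfix : ∀ g : G, g • R.inf = R.inf → g ∈ K := by
      intro g hg
      obtain ⟨x, h, hh, rfl⟩ := R.exists_τ_mul g hg
      exact K.mul_mem (hτK x) (hle hh)
    by_cases hg : g₀ • R.inf = R.inf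
    · exact hfix _ hg
    · obtain ⟨x, hx⟩ := R.pt_surj _ hg
      have h1 : ((R.τ x * s')⁻¹ * g₀) • R.inf = R.inf := by
        rw [mul_smul, inv_smul_eq_iff, mul_smul, hs'.inf, R.τ_o, hx]
      have h2 := hfix _ h1
      have h3 : g₀ = (R.τ x * s') * ((R.τ x * s')⁻¹ * g₀) := by group
      rw [h3]
      exact K.mul_mem (K.mul_mem (hτK x) hs'K) h2
  refine ⟨K ⊓ R.H, inf_le_right, ?_, ?_, ?_⟩
  · constructor
    rintro ⟨n, hn⟩ hn' ⟨g, hg⟩
    rw [Subgroup.mem_subgroupOf] at hn' ⊢
    exact ⟨‹K.Normal›.conj_mem _ hn'.1 g, R.H.mul_mem (R.H.mul_mem hg hn) (R.H.inv_mem hg)⟩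
  · have hle := Cfsg.Agent.Lib.Zass.PrimeDeg.card_le_of_fibres hs' hsp (K ⊓ R.H)
      (fun x hx => ⟨K.mul_mem (hmuK x) hs'K, mu_mem hs' hx⟩)
    have h1 := Subgroup.card_mul_index ((K ⊓ R.H).subgroupOf R.H)
    rw [Nat.card_congr (Subgroup.subgroupOfEquivOfLe (inf_le_right : K ⊓ R.H ≤ R.H)).toEquiv] at h1
    show ((K ⊓ R.H).subgroupOf R.H).index = 2
    set k := ((K ⊓ R.H).subgroupOf R.H).index with hk
    have hpos : 0 < Nat.card (K ⊓ R.H : Subgroup G) := Nat.card_pos
    have hk0 : k ≠ 0 := by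
      rintro h
      rw [h, mul_zero] at h1
      have : 0 < Nat.card R.H := Nat.card_pos
      omega
    have hk1 : k ≠ 1 := by
      intro h
      apply hHK
      have h2 : (K ⊓ R.H).subgroupOf R.H = ⊤ := Subgroup.index_eq_one.mp h
      intro x hx
      have h3 : (⟨x, hx⟩ : R.H) ∈ (K ⊓ R.H).subgroupOf R.H := by rw [h2]; trivial
      rw [Subgroup.mem_subgroupOf] at h3
      exact h3.1
    have hk2 : k ≤ 2 := by
      by_contra hlt
      have h2 : Nat.card (K ⊓ R.H : Subgroup G) * 3 ≤ Nat.card (K ⊓ R.H : Subgroup G) * k :=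
        Nat.mul_le_mul_left _ (by omega)
      rw [h1] at h2
      omega
    omega
  · intro n hn
    refine ⟨‹K.Normal›.conj_mem _ hn.1 s, ?_, ?_⟩
    · show (s * n * s⁻¹) • R.inf = R.inf
      have h1 : s⁻¹ • R.inf = R.o := by rw [inv_smul_eq_iff, hsb]
      have h2 : n • R.o = R.o := hn.2.2
      rw [mul_smul, mul_smul, h1, h2, hsb]
    · show (s * n * s⁻¹) • R.o = R.o
      have h1 : s⁻¹ • R.o = R.inf := by rw [inv_smul_eq_iff, hsa]
      have h2 : n • R.inf = R.inf := hn.2.1
      rw [mul_smul, mul_smul, h1, h2, hsa]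

end Zass

end Cfsg.Agent.Lib.Zass.Sharp3Index
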